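import Cfsg.Agent.H7.Lee.McLU
import Cfsg.Agent.H7.Li.U35

/-! The action of HS on 352 vectors. -/

set_option autoImplicit false
set_option maxRecDepth 100000

namespace CfsgH7.HS.U3

open Cfsg CfsgH7.Lee CfsgH7.HS MulAction

def bsv : List Nat := [3,2,1,0]
theorem Mv : Md pvB 352 g lvB 4 44352000 bsv :=
  Md.of RvB hLB.fam.inj card 4 [⟨0, [[0],[2],[4],[6]], [0,1,2,3,0,1,0,2,1,3,0,0], 352⟩,
  ⟨1, [[1,6,0],[2,2,1,4],[0,6,4,6,1],[3,3,6,2,2]], [0,1,2,0,1,0,3,1,0,2,0,3], 175⟩,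
  ⟨2, [[1,1,6,0,0],[6,3,4,2,6],[3,3,0,6,1,2,2],[0,4,0,6,3,6,0,3]], [0,1,2,0,1,3,0,2,1], 72⟩,
  ⟨3, [[2,4,3,3,6,2,2,4,3],[1,6,0,3,1,6,4,3,3,4,6]], [0,1,0,1,0], 10⟩] 9 bsv (by decide +kernel)
def V : List (List Nat) := [[0,4,6,3,3,0,4,2,6,4,1,2],[1,6,0,4,2,1,6,1,3,6,1,6],[4,2,2,4,0,4,6,2,1,4,1,6]]
theorem Vs_0 : lall (fun w => fixesP lvB w bsv) (U35.Rf.map (substW V)) = true := by decide +kernel
theorem Vs : lall (fun w => fixesP lvB w bsv) (U35.Rf.map (substW V)) = true :=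
  Vs_0
theorem V_m : Mdl (genW g V) 3 U35.Rf 126000 :=
  Mv.genMdl (V := V) U35.pr U35.mdl0 U35.simple Vs 1 (by decide +kernel)
theorem hK : genW g V = MulAction.stabilizer Cfsg.Spor.HS (pvB 0) := Mv.stab ⟨0, [0,1,2,3,0,1,0,2,1,3,0,0], 352⟩ 9 126000 (by decide +kernel) V_m.2.1.ge
theorem trB : ∀ x ∈ TB, ∀ y ∈ TB, ∃ k ∈ KH, k • x = y := fun x hx y hy =>
  hLB.fam.tr2 hLB.rep (W := gensW 4) (fun w _ => wprod_mem' (wordAt_in memH) w) (Rb.all _ _)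
    [0,1,2,3,0,1,0,2,1,3,0,0] 0 (by decide +kernel) x hx y hy trivial trivial

theorem st : Mdl (KH ⊓ stabilizer Co0 (pvB 0) : Subgroup Co0) 3 U35.Rf 126000 :=
  (offS oH (pvB 0)).elim fun e => (hK ▸ V_m : Mdl (stabilizer Spor.HS (pvB 0)) 3 U35.Rf 126000).congr e

theorem e0 (x : Λ) : -x ∈ XS (-uW - uV) uV 16 (-24) ↔ x ∈ TB := by
  simp only [XS, TB, Set.mem_setOf_eq, AddSubgroup.coe_sub, AddSubgroup.coe_neg, sub_dot, neg_dot, dot_neg, neg_Mn]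
  exact and_congr_right fun _ => by omega

theorem main {v w : Λ} (hv : sqNorm (v : GolayPt → ℤ) = 48) (hw : sqNorm (w : GolayPt → ℤ) = 48)
    (hd : dotInt (v : GolayPt → ℤ) (w : GolayPt → ℤ) = -32) :
    (XS v w 16 (-24)).ncard = 352 ∧ (∀ x ∈ XS v w 16 (-24), -w - x ∈ XS v w 16 (-24)) ∧
    (∀ x ∈ XS v w 16 (-24), ∀ y ∈ XS v w 16 (-24), ∃ g : Co0, g • v = v ∧ g • w = w ∧ g • x = y) ∧
    ∀ x ∈ XS v w 16 (-24), Mdl (stabilizer Co0 v ⊓ stabilizer Co0 w ⊓ stabilizer Co0 x : Subgroup Co0) 3 U35.Rf 126000 := by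
  refine ⟨?_, fun x hx => ?_, ?_⟩
  · obtain ⟨c, rfl, rfl⟩ := cfgH hw hv ((dot_comm _ _).trans hd)
    refine (ncard_smul_eq c fun y => XS_smul c).trans ?_
    rw [← cTB, ← Set.ncard_neg]
    congr 1
    exact Set.ext e0
  · obtain ⟨h1, h2, h3⟩ := hx
    have h1 : sqNorm (x : GolayPt → ℤ) = 32 := h1
    refine ⟨show sqNorm _ = 32 from ?_, ?_, ?_⟩
    · rw [AddSubgroup.coe_sub, AddSubgroup.coe_neg, sq_sub, sq_neg, neg_dot]; omega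
    · rw [AddSubgroup.coe_sub, AddSubgroup.coe_neg, dot_sub, dot_neg]; omega
    · rw [AddSubgroup.coe_sub, AddSubgroup.coe_neg, dot_sub, dot_neg, ← sq_eq]; omega
  obtain ⟨c, rfl, rfl⟩ := cfgH hw hv ((dot_comm _ _).trans hd)
  refine ⟨fun x hx y hy => ?_, fun x hx => ?_⟩
  · obtain ⟨x, rfl⟩ := ex_smul c x
    obtain ⟨y, rfl⟩ := ex_smul c y
    rw [XS_smul] at hx hy
    obtain ⟨k, h1, h2⟩ := trB (-x) ((e0 _).1 (by rwa [neg_neg])) (-y) ((e0 _).1 (by rwa [neg_neg]))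
    rw [← KH_eq] at h1
    rw [g_neg, neg_inj] at h2
    exact ⟨_, (fix2 h1).2, (fix2 h1).1, cj_smul c h2⟩
  obtain ⟨x, rfl⟩ := ex_smul c x
  rw [XS_smul] at hx
  obtain ⟨k, h1, h2⟩ := trB _ (hLB.fam.mem 0 (by norm_num)) (-x) ((e0 _).1 (by rwa [neg_neg]))
  rw [← KH_eq] at h1
  have h := ((Cj.stab (c * k) uV).inf (Cj.stab (c * k) (-uW - uV))).inf (Cj.stab (c * k) (pvB 0))
  rw [KH_eq, mul_smul, mul_smul, mul_smul, h1.1, h1.2, h2, g_neg, stab_neg, inf_comm (stabilizer Co0 (c • uV))] at h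
  exact st.congr h.equiv

end CfsgH7.HS.U3
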