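import Cfsg.Agent.H7.Cls
import Cfsg.Agent.H7.Mx5
import Cfsg.Agent.H7.Lee.Cfg
import Cfsg.Agent.H7.Li.U43

/-! The point stabiliser of McL. -/

set_option autoImplicit false
set_option maxRecDepth 100000

namespace CfsgH7.Lee

open Cfsg MulAction

theorem offS {K : Subgroup Co0} {L : Subgroup (Equiv.Perm Λ)} (h : K.map Co0.subtype = L) (x : Λ) :
    Nonempty (stabilizer L x ≃* (K ⊓ stabilizer Co0 x : Subgroup Co0)) := by
  have e : ((K ⊓ stabilizer Co0 x).subgroupOf K).map (offE h).toMonoidHom = stabilizer L x := by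
    ext y
    obtain ⟨y, rfl⟩ := (offE h).surjective y
    rw [show offE h y = (offE h).toMonoidHom y from rfl, Subgroup.mem_map_iff_mem (offE h).injective]
    exact ⟨fun a => a.2, fun a => ⟨y.2, a⟩⟩
  exact ⟨((MulEquiv.subgroupCongr e).symm.trans ((offE h).subgroupMap _).symm).trans
    (Subgroup.subgroupOfEquivOfLe inf_le_left)⟩

end CfsgH7.Lee

namespace CfsgH7.McL.U4

open Cfsg CfsgH7.Lee CfsgH7.McL MulAction

def V : List (List Nat) := [[3,0,0,4,6,0,0,4,1,1,4,6,0,2,2],[0,2,4,0,6,4,1,3,4,2,6,2,2,6],[0,0,6,3,6,0,0,6,2,6,2,0,3]]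
theorem Vs_0 : lall (fun w => fixesP l w bs) (U43.Rf.map (substW V)) = true := by decide +kernel
theorem Vs : lall (fun w => fixesP l w bs) (U43.Rf.map (substW V)) = true :=
  Vs_0
theorem V_m : Mdl (genW g V) 3 U43.Rf 3265920 :=
  M0.genMdl (V := V) U43.pr U43.mdl0 U43.simple Vs 1 (by decide +kernel)
theorem hK : genW g V = MulAction.stabilizer Cfsg.Spor.McL (pt 0) := M0.stab ⟨0, [0,1,2,0,1,3,0,1,3,0,2,3,0], 275⟩ 9 3265920 (by decide +kernel) V_m.2.1.ge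

theorem st : Mdl (KM ⊓ stabilizer Co0 xM : Subgroup Co0) 3 U43.Rf 3265920 :=
  (offS oM xM).elim fun e => (eM ▸ (show genW g V = stabilizer Spor.McL (pv 0) from hK) ▸ V_m :
    Mdl (stabilizer Spor.McL xM) 3 U43.Rf 3265920).congr e

theorem main {u v x : Λ} (hu : sqNorm (u : GolayPt → ℤ) = 48)
    (hv : sqNorm (v : GolayPt → ℤ) = 32 ∧ sqNorm ((u : GolayPt → ℤ) - (v : GolayPt → ℤ)) = 32) (hx : x ∈ XS u v 24 16) :
    Mdl (stabilizer Co0 u ⊓ stabilizer Co0 v ⊓ stabilizer Co0 x : Subgroup Co0) 3 U43.Rf 3265920 := by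
  obtain ⟨c, rfl, rfl⟩ := cfgM hu hv
  obtain ⟨x, rfl⟩ := ex_smul c x
  rw [XS_smul, XM0] at hx
  obtain ⟨k, h1, rfl⟩ := trM xM mM x hx
  rw [← KM_eq] at h1
  have h := ((Cj.stab (c * k) uV).inf (Cj.stab (c * k) (-uU))).inf (Cj.stab (c * k) xM)
  rw [KM_eq, mul_smul, mul_smul, mul_smul, h1.1, h1.2] at h
  exact st.congr h.equiv

end CfsgH7.McL.U4
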